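import Mathlib
import Cfsg.Prelude.Def_GeometricClasses

/-! Ladder ASU8, rung PFIX: a perfect group of similarities consists of isometries. -/

set_option autoImplicit false

namespace Cfsg.Agent.Lib.Helper77.ASU8

open Cfsg Cfsg.Geo
open scoped MatrixGroups Matrix

variable {n : ℕ} {F : Type*} [Field F]

/-- the isometry group of a two-argument form. -/
def pfixS (f : (Fin n → F) → (Fin n → F) → F) : Subgroup (GL (Fin n) F) where
  carrier := {g | ∀ u v, f ((g : Matrix (Fin n) (Fin n) F) *ᵥ u) ((g : Matrix (Fin n) (Fin n) F) *ᵥ v) = f u v}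
  mul_mem' {a b} ha hb := by
    intro u v
    rw [Units.val_mul, ← Matrix.mulVec_mulVec, ← Matrix.mulVec_mulVec, ha, hb]
  one_mem' := fun u v => by simp
  inv_mem' {a} ha := by
    intro u v
    have h := ha (((a⁻¹ : GL (Fin n) F) : Matrix (Fin n) (Fin n) F) *ᵥ u)
      (((a⁻¹ : GL (Fin n) F) : Matrix (Fin n) (Fin n) F) *ᵥ v)
    rw [Matrix.mulVec_mulVec, Matrix.mulVec_mulVec, ← Units.val_mul, mul_inv_cancel, Units.val_one,
      Matrix.one_mulVec, Matrix.one_mulVec] at h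
    exact h.symm

/-- the isometry group of a one-argument form. -/
def pfixSQ (Q : (Fin n → F) → F) : Subgroup (GL (Fin n) F) where
  carrier := {g | ∀ v, Q ((g : Matrix (Fin n) (Fin n) F) *ᵥ v) = Q v}
  mul_mem' {a b} ha hb := by
    intro v
    rw [Units.val_mul, ← Matrix.mulVec_mulVec, ha, hb]
  one_mem' := fun v => by simp
  inv_mem' {a} ha := by
    intro v
    have h := ha (((a⁻¹ : GL (Fin n) F) : Matrix (Fin n) (Fin n) F) *ᵥ v)
    rw [Matrix.mulVec_mulVec, ← Units.val_mul, mul_inv_cancel, Units.val_one, Matrix.one_mulVec] at h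
    exact h.symm

theorem pfix_inv (f : (Fin n → F) → (Fin n → F) → F) (x : GL (Fin n) F) (c : Fˣ)
    (hc : ∀ u v, f ((x : Matrix (Fin n) (Fin n) F) *ᵥ u) ((x : Matrix (Fin n) (Fin n) F) *ᵥ v) = (c : F) * f u v)
    (u v : Fin n → F) :
    f (((x⁻¹ : GL (Fin n) F) : Matrix (Fin n) (Fin n) F) *ᵥ u)
      (((x⁻¹ : GL (Fin n) F) : Matrix (Fin n) (Fin n) F) *ᵥ v) = (c : F)⁻¹ * f u v := by
  have h := hc (((x⁻¹ : GL (Fin n) F) : Matrix (Fin n) (Fin n) F) *ᵥ u)
    (((x⁻¹ : GL (Fin n) F) : Matrix (Fin n) (Fin n) F) *ᵥ v)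
  rw [Matrix.mulVec_mulVec, Matrix.mulVec_mulVec, ← Units.val_mul, mul_inv_cancel, Units.val_one,
    Matrix.one_mulVec, Matrix.one_mulVec] at h
  rw [h, ← mul_assoc, inv_mul_cancel₀ c.ne_zero, one_mul]

theorem pfix_invQ (Q : (Fin n → F) → F) (x : GL (Fin n) F) (c : Fˣ)
    (hc : ∀ v, Q ((x : Matrix (Fin n) (Fin n) F) *ᵥ v) = (c : F) * Q v) (v : Fin n → F) :
    Q (((x⁻¹ : GL (Fin n) F) : Matrix (Fin n) (Fin n) F) *ᵥ v) = (c : F)⁻¹ * Q v := by
  have h := hc (((x⁻¹ : GL (Fin n) F) : Matrix (Fin n) (Fin n) F) *ᵥ v)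
  rw [Matrix.mulVec_mulVec, ← Units.val_mul, mul_inv_cancel, Units.val_one, Matrix.one_mulVec] at h
  rw [h, ← mul_assoc, inv_mul_cancel₀ c.ne_zero, one_mul]

theorem fixes_of_perfect (P : Subgroup (GL (Fin n) F)) (hperf : ⁅P, P⁆ = P) (f : (Fin n → F) → (Fin n → F) → F)
    (h : P ≤ similarityGroup f) : FixesForm (matrixSet P) f := by
  have hle : ⁅P, P⁆ ≤ pfixS f := by
    rw [Subgroup.commutator_le]
    intro x hx y hy
    obtain ⟨c, hc⟩ := h hx
    obtain ⟨d, hd⟩ := h hy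
    intro u v
    rw [commutatorElement_def, Units.val_mul, Units.val_mul, Units.val_mul, ← Matrix.mulVec_mulVec,
      ← Matrix.mulVec_mulVec, ← Matrix.mulVec_mulVec, ← Matrix.mulVec_mulVec, ← Matrix.mulVec_mulVec,
      ← Matrix.mulVec_mulVec, hc, hd, pfix_inv f x c hc, pfix_inv f y d hd]
    have hc0 := c.ne_zero
    have hd0 := d.ne_zero
    field_simp
  rw [hperf] at hle
  rintro s ⟨g, hg, rfl⟩ u v
  exact hle hg u v

theorem fixesQuad_of_perfect (P : Subgroup (GL (Fin n) F)) (hperf : ⁅P, P⁆ = P) (Q : (Fin n → F) → F)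
    (h : P ≤ quadSimilarityGroup Q) : FixesQuadForm (matrixSet P) Q := by
  have hle : ⁅P, P⁆ ≤ pfixSQ Q := by
    rw [Subgroup.commutator_le]
    intro x hx y hy
    obtain ⟨c, hc⟩ := h hx
    obtain ⟨d, hd⟩ := h hy
    intro v
    rw [commutatorElement_def, Units.val_mul, Units.val_mul, Units.val_mul, ← Matrix.mulVec_mulVec,
      ← Matrix.mulVec_mulVec, ← Matrix.mulVec_mulVec, hc, hd, pfix_invQ Q x c hc, pfix_invQ Q y d hd]
    have hc0 := c.ne_zero
    have hd0 := d.ne_zero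
    field_simp
  rw [hperf] at hle
  rintro s ⟨g, hg, rfl⟩ v
  exact hle hg v

end Cfsg.Agent.Lib.Helper77.ASU8
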