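import Cfsg.Agent.Lib.Helper77.ASU8.Main8
import Cfsg.Agent.Lib.Helper59.ASU9.MULT

set_option autoImplicit false

namespace Cfsg.Agent.Lib.Helper77.ASU8

open Cfsg Cfsg.Geo
open Cfsg.Agent.Lib.Helper77.Asch (NormBy MinOver sc)
open Cfsg.Agent.Lib.Helper32.AschU (SUg IsTv gram)
open Cfsg.Agent.Lib.Helper47.UC (InGeoV)
open scoped MatrixGroups Matrix

variable {n : ℕ} {F : Type*} [Field F]

/-- a root of unity of prime order lies in a proper subfield or `F` is its minimal field. -/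
theorem field_cases_min [Fintype F] {r : ℕ} (hr : r.Prime) (w : Fˣ) (hw : orderOf w = r) :
    (∃ F₀ : Subfield F, F₀ ≠ ⊤ ∧ (w : F) ∈ F₀) ∨ (∃ p e : ℕ, r ≠ p ∧ IsMinimalFieldFor r p e F) := by
  classical
  obtain ⟨p, hchar⟩ := CharP.exists F
  obtain ⟨e, hp, hcard⟩ := FiniteField.card F p
  have : Fact p.Prime := ⟨hp⟩
  have he0 : 0 < (e : ℕ) := e.pos
  have hpe : 1 < p ^ (e : ℕ) := Nat.one_lt_pow he0.ne' hp.one_lt
  have hdvd : r ∣ p ^ (e : ℕ) - 1 := by
    rw [← hw, ← hcard, ← Fintype.card_units]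
    exact orderOf_dvd_card
  have hnp : r ≠ p := by
    rintro rfl
    have h1 : r ∣ r ^ (e : ℕ) := dvd_pow_self r he0.ne'
    have h2 : r ∣ 1 := by
      have := (Nat.dvd_sub h1 hdvd)
      rwa [Nat.sub_sub_self hpe.le] at this
    exact hr.one_lt.ne' (Nat.dvd_one.1 h2)
  by_cases hex : ∃ d : ℕ, 0 < d ∧ d < e ∧ r ∣ p ^ d - 1
  · left
    obtain ⟨d, hd0, hde, hd⟩ := hex
    refine ⟨(iterateFrobenius F p d).eqLocusField (RingHom.id F), ?_, ?_⟩
    · intro htop
      obtain ⟨a, ha⟩ := Cfsg.Agent.Lib.Helper77.Asch.fc_exists_ne (F := F) p e d hp hcard hd0 hde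
      apply ha
      have : a ∈ (iterateFrobenius F p d).eqLocusField (RingHom.id F) := htop ▸ Subfield.mem_top a
      exact this
    · change (w : F) ^ p ^ d = w
      have hpd : 1 ≤ p ^ d := Nat.one_le_pow _ _ hp.pos
      have h1 : w ^ (p ^ d - 1) = 1 := orderOf_dvd_iff_pow_eq_one.1 (hw ▸ hd)
      have h2 : w ^ p ^ d = w := by
        conv_lhs => rw [← Nat.sub_add_cancel hpd, pow_succ, h1, one_mul]
      exact_mod_cast congrArg Units.val h2
  · right
    push Not at hex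
    exact ⟨p, e, hnp, hp, hchar, hcard, hdvd, fun d h0 h1 => hex d h0 h1⟩

/-- `F_{p²}`, `p ≡ 3 mod 4`, is the minimal field for 4. -/
theorem minimalField_four [Fintype F] (p : ℕ) (hp : p.Prime) (hF : Fintype.card F = p ^ 2) (h4 : p % 4 = 3) :
    IsMinimalFieldFor 4 p 2 F := by
  obtain ⟨p', hchar⟩ := CharP.exists F
  obtain ⟨e, hp', hcard⟩ := FiniteField.card F p'
  have h1 : p' ∣ p ^ 2 := by
    rw [← hF, hcard]; exact dvd_pow_self p' e.pos.ne'
  have h2 : p' = p := (Nat.prime_dvd_prime_iff_eq hp' hp).1 (hp'.dvd_of_dvd_pow h1)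
  subst h2
  refine ⟨hp, hchar, hF, ?_, ?_⟩
  · obtain ⟨t, ht⟩ : ∃ t, p' = 4 * t + 3 := ⟨p' / 4, by omega⟩
    rw [ht]
    refine ⟨4 * t ^ 2 + 6 * t + 2, ?_⟩
    have : (4 * t + 3) ^ 2 = 4 * (4 * t ^ 2 + 6 * t + 2) + 1 := by ring
    omega
  · intro d h0 h1
    obtain rfl : d = 1 := by omega
    rw [pow_one]
    omega

open Cfsg.Agent.Lib.Helper77.Asch Cfsg.Agent.Lib.Helper77.AschG in
/-- the complete class-6 block of the unitary case. -/
theorem caseAUG [Fintype F] (q : ℕ) (hF : Fintype.card F = q ^ 2) (h3 : 3 ≤ n)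
    (Hh N : Subgroup (GL (Fin n) F)) (hsim : Hh ≤ similarityGroup (hermForm n F q))
    (hm : MinOver Hh (scalars (Fin n) F) N) (hab : ⁅N, N⁆ ≤ scalars (Fin n) F)
    (hN : ActsAbsolutelyIrreducibly (matrixSet N)) :
    InGeoV q Hh ∨ ∃ (r : ℕ) (R : Subgroup (GL (Fin n) F)) (p e k : ℕ), IsSymplecticTypeGroup r R ∧
      ActsAbsolutelyIrreducibly (matrixSet R) ∧ R ≤ similarityGroup (hermForm n F q) ∧ r ≠ p ∧
      IsMinimalFieldFor (Nat.card (Subgroup.center R)) p e F ∧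
      ((Odd r ∧ Nat.card (Subgroup.center R) = r ∧ 1 ≤ k ∧ Nat.card R = r ^ (1 + 2 * k)) ∨
       (r = 2 ∧ e = 2 ∧ Nat.card (Subgroup.center R) = 4 ∧ Nat.card R = 2 ^ (2 + 2 * k))) ∧
      Hh ≤ subgroupNormalizer R := by
  classical
  have hn : 0 < n := by omega
  have h2n : 2 ≤ n := by omega
  have hZc : ∀ z ∈ scalars (Fin n) F, ∀ g : GL (Fin n) F, g * z = z * g :=
    fun z hz g => Cfsg.Agent.Lib.Helper77.Asch.scalars_central z hz g
  obtain ⟨r, hr, hexp⟩ := exists_prime_exp Hh (scalars (Fin n) F) N hZc hm hab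
  obtain ⟨x, hx, y, hy, c, hc1, hxy⟩ := exists_noncomm h2n N hab hN
  have hcr : c ^ r = 1 := pair_pow hn r x y c hxy (hexp x hx)
  have hcord : orderOf c = r := by
    have := Fact.mk hr
    exact orderOf_eq_prime hcr hc1
  obtain ⟨m, hm1, hnm⟩ := dim_prime_pow h2n r hr N hm.lt.le hab hN hexp
  by_cases hr2 : r = 2
  · subst hr2
    rcases caseAU q hF h3 ⟨m, hnm⟩ Hh N hsim hm hab hN with h | ⟨p, R, h1, h2, h3', h4, h5, h6, h7, h8, _, h10⟩
    · exact Or.inl h
    · subst h2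
      refine Or.inr ⟨2, R, q, 2, m, h4, h5, h6, ?_, ?_, Or.inr ⟨rfl, rfl, h8, ?_⟩, h10⟩
      · rintro rfl
        omega
      · rw [h8]
        exact minimalField_four q h1 hF h3'
      · rw [h7, hnm]
        ring
  · obtain ⟨R, hsup, hnorm, hmem⟩ := exists_expSub_odd h2n r hr hr2 Hh N hm hab hN hexp
    have hRabs : ActsAbsolutelyIrreducibly (matrixSet R) := absIrr_of_sup R (by rw [hsup]; exact hN)
    have hRN : R ≤ N := hsup ▸ le_sup_left
    have hRab : ⁅R, R⁆ ≤ scalars (Fin n) F := (Subgroup.commutator_mono hRN hRN).trans hab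
    have hle : Hh ≤ subgroupNormalizer R := le_normalizer_of_normBy hnorm
    have hRexp : ∀ g ∈ R, g ^ r = 1 := fun g hg => ((hmem g).1 hg).2
    have hRsim : R ≤ similarityGroup (hermForm n F q) := (hRN.trans hm.le).trans hsim
    have hRU : R ≤ GU n F q :=
      Cfsg.Agent.Lib.Helper59.ASU9.le_GU_of_exp q hF hn r hr hr2 R hRsim hRexp x y (hsim (hm.le hx))
        (hsim (hm.le hy)) c hcord hxy
    obtain ⟨b, hb⟩ := exists_monomial_basis hn R hRab hRabs.1 r hr.pos c hcord hRexp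
    rcases field_cases_min hr c hcord with ⟨F₀, hF₀, hwF⟩ | ⟨p, e, hnp, hmin⟩
    · left
      have h0 : ∀ d : F, d ^ r = 1 → d ∈ F₀ := by
        intro d hd
        obtain ⟨k, rfl⟩ := eq_pow_of_root r hr.pos c hcord d hd
        exact pow_mem hwF k
      obtain ⟨B, hB⟩ := realisable_of_monomial R r b hb F₀ h0
      exact geoV_of_realisable q hF h2n Hh R hRabs hRU hle F₀ hF₀ B hB
    · right
      have hcc : Nat.card (Subgroup.center R) = r :=
        card_center hn N R r hr.pos hmem hm.lt.le hRabs c hcord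
      have hcR : Nat.card R = r ^ (1 + 2 * m) := by
        rw [card_expSub hn N R hsup hab hN, hcc, hnm]
        ring
      have hwR : (sc c : GL (Fin n) F) ∈ R := by
        rw [hmem]
        refine ⟨hm.lt.le (ex1_sc_mem c), ?_⟩
        rw [ex1_sc_pow, hcr, ex1_sc_one]
      have hodd : Odd r := hr.odd_of_ne_two hr2
      have hgcd : Nat.gcd 2 r = 1 := (Nat.coprime_primes Nat.prime_two hr).2 (Ne.symm hr2)
      exact ⟨r, R, p, e, m, ⟨hr, casea_pgroup R r 1 (by simpa using hRexp),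
        fun A hA hc => char_abelian_cyclic hn Hh N R hm hN hsup hnorm A hA hc,
        by rw [exponent_expSub hn R r hRexp c hcord hwR, hgcd, mul_one]⟩, hRabs, hRsim, hnp,
        by rw [hcc]; exact hmin, Or.inl ⟨hodd, hcc, hm1, hcR⟩, hle⟩

end Cfsg.Agent.Lib.Helper77.ASU8
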