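import Cfsg.Agent.Lib.Helper77.Asch.FC

set_option autoImplicit false

namespace Cfsg.Agent.Lib.Helper77.ASU8

open Cfsg Cfsg.Geo Cfsg.Agent.Lib.Helper77.Asch

variable {F : Type*} [Field F]

/-- FC4U. -/
theorem field_cases_four_U [Fintype F] (q : ℕ) (hF : Fintype.card F = q ^ 2) (w : Fˣ) (hw : orderOf w = 4) :
    (∃ F₀ : Subfield F, F₀ ≠ ⊤ ∧ (w : F) ∈ F₀) ∨ (q.Prime ∧ q % 4 = 3) := by
  classical
  obtain ⟨p, hchar⟩ := CharP.exists F
  obtain ⟨e, hp, hcard⟩ := FiniteField.card F p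
  have : Fact p.Prime := ⟨hp⟩
  have he0 : 0 < (e : ℕ) := e.pos
  have hpe : 1 < p ^ (e : ℕ) := Nat.one_lt_pow he0.ne' hp.one_lt
  have hdvd : 4 ∣ p ^ (e : ℕ) - 1 := by
    rw [← hw, ← hcard, ← Fintype.card_units]
    exact orderOf_dvd_card
  have hnp : 2 ≠ p := by
    rintro rfl
    have h1 : 2 ∣ 2 ^ (e : ℕ) := dvd_pow_self 2 he0.ne'
    have h2' : 2 ∣ 2 ^ (e : ℕ) - 1 := Dvd.dvd.trans (by norm_num) hdvd
    have h2 : 2 ∣ 1 := by
      have := (Nat.dvd_sub h1 h2')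
      rwa [Nat.sub_sub_self hpe.le] at this
    omega
  by_cases hex : ∃ d : ℕ, 0 < d ∧ d < e ∧ 4 ∣ p ^ d - 1
  · left
    obtain ⟨d, hd0, hde, hd⟩ := hex
    refine ⟨(iterateFrobenius F p d).eqLocusField (RingHom.id F), ?_, ?_⟩
    · intro htop
      obtain ⟨a, ha⟩ := fc_exists_ne (F := F) p e d hp hcard hd0 hde
      apply ha
      have : a ∈ (iterateFrobenius F p d).eqLocusField (RingHom.id F) := htop ▸ Subfield.mem_top a
      exact this
    · change (w : F) ^ p ^ d = w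
      have hpd : 1 ≤ p ^ d := Nat.one_le_pow _ _ hp.pos
      have h1 : w ^ (p ^ d - 1) = 1 := orderOf_dvd_iff_pow_eq_one.1 (hw ▸ hd)
      have h2 : w ^ p ^ d = w := by
        conv_lhs => rw [← Nat.sub_add_cancel hpd, pow_succ, h1, one_mul]
      exact_mod_cast congrArg Units.val h2
  · right
    push Not at hex
    have hpodd : p % 2 = 1 := by
      rcases hp.eq_two_or_odd with h | h
      · exact absurd h.symm hnp
      · exact h
    have hp1 : 1 ≤ p := hp.pos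
    have hpq : p ^ (e : ℕ) = q ^ 2 := by rw [← hcard, hF]
    have he1 : (e : ℕ) ≠ 1 := by
      intro h
      rw [h, pow_one] at hpq
      exact Nat.Prime.not_prime_pow (x := q) (n := 2) le_rfl (hpq ▸ hp)
    have he2 : (e : ℕ) = 2 := by
      by_contra hne
      have h2e : 2 < (e : ℕ) := by omega
      apply hex 2 (by norm_num) h2e
      obtain ⟨m, hm⟩ : ∃ m, p = 2 * m + 1 := ⟨p / 2, by omega⟩
      have h5 : p ^ 2 = 4 * (m * (m + 1)) + 1 := by rw [hm]; ring
      rw [h5, Nat.add_sub_cancel]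
      exact Dvd.intro _ rfl
    rw [he2] at hpq
    have hqp : p = q := Nat.pow_left_injective (n := 2) (by norm_num) hpq
    subst hqp
    refine ⟨hp, ?_⟩
    have h41 : ¬ 4 ∣ p ^ 1 - 1 := hex 1 one_pos (by omega)
    rw [pow_one] at h41
    omega

end Cfsg.Agent.Lib.Helper77.ASU8
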