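import Cfsg.Agent.Lib.Helper77.AschG.PAIR
import Cfsg.Agent.Lib.Helper77.Asch.Main
import Cfsg.Agent.Lib.Helper32.AschU.TV5

/-! Ladder ASU8 (helper77), rung PRC6 (helper56). -/

set_option autoImplicit false

namespace Cfsg.Agent.Lib.Helper77.ASU8

open Cfsg Cfsg.Geo
open Cfsg.Agent.Lib.Helper77.Asch (NormBy MinOver sc)
open Cfsg.Agent.Lib.Helper32.AschU (SUg IsTv gram)
open scoped MatrixGroups Matrix

variable {n : ℕ} {F : Type*} [Field F]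

/-- an element of `R` fixing `ker f1 ⊓ ker f2` pointwise is trivial. -/
theorem prc6_claim (h5 : 5 ≤ n) (R : Subgroup (GL (Fin n) F)) (hab : ⁅R, R⁆ ≤ scalars (Fin n) F)
    (hR : ActsAbsolutelyIrreducibly (matrixSet R)) (g : GL (Fin n) F) (hg : g ∈ R)
    (f1 f2 : (Fin n → F) →ₗ[F] F)
    (hfix : ∀ v, f1 v = 0 → f2 v = 0 → (g : Matrix (Fin n) (Fin n) F) *ᵥ v = v) : g = 1 := by
  have hcomm : ∀ k ∈ R, g * k = k * g := by
    intro k hk
    obtain ⟨ζ, hζ⟩ := Cfsg.Agent.Lib.Helper77.AschG.pair_scalar R hab k g hk hg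
    have h1 : ζ = 1 := Cfsg.Agent.Lib.Helper32.AschU.tv5_key h5 g k ζ f1 f2 hfix hζ
    rw [h1] at hζ
    have h2 : (sc (1 : Fˣ) : GL (Fin n) F) = 1 := by
      unfold sc
      rw [map_one]
    rw [h2, one_mul] at hζ
    exact hζ.symm
  have hsc : g ∈ scalars (Fin n) F :=
    Cfsg.Agent.Lib.Helper77.Asch.mem_scalars_of_commute (by omega) R hR g hcomm
  obtain ⟨c, hc⟩ := (mem_scalars_iff g).1 hsc
  obtain ⟨v, hv0, h1, h2, -, -⟩ := Cfsg.Agent.Lib.Helper32.AschU.tv5_ker4 h5 f1 f2 f1 f2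
  have e := hfix v h1 h2
  rw [hc, Matrix.smul_mulVec, Matrix.one_mulVec] at e
  have hc1 : c = 1 := Cfsg.Agent.Lib.Helper32.AschU.tv5_smul_fix c v hv0 e
  apply Units.ext
  rw [hc, hc1]
  simp

/-- PRC6. -/
theorem tv_not_mem_normalizer (h5 : 5 ≤ n) (R : Subgroup (GL (Fin n) F)) (hab : ⁅R, R⁆ ≤ scalars (Fin n) F)
    (hR : ActsAbsolutelyIrreducibly (matrixSet R)) (τ : GL (Fin n) F) (hτ : IsTv τ) :
    τ ∉ subgroupNormalizer R := by
  classical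
  intro hmem
  obtain ⟨hne, u, φ, hφu, hv⟩ := hτ
  have hN : ∀ m, m ∈ R ↔ τ * m * τ⁻¹ ∈ R := Subgroup.mem_normalizer_iff.1 hmem
  have hτfix : ∀ v, φ v = 0 → (τ : Matrix (Fin n) (Fin n) F) *ᵥ v = v := by
    intro v h0
    rw [hv, h0, zero_smul, add_zero]
  have hτifix : ∀ v, φ v = 0 → ((τ⁻¹ : GL (Fin n) F) : Matrix (Fin n) (Fin n) F) *ᵥ v = v := by
    intro v h0
    have : ((τ⁻¹ * τ : GL (Fin n) F) : Matrix (Fin n) (Fin n) F) *ᵥ v = v := by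
      rw [inv_mul_cancel, Units.val_one, Matrix.one_mulVec]
    rw [Units.val_mul, ← Matrix.mulVec_mulVec, hτfix v h0] at this
    exact this
  have hcomm : ∀ g₀ ∈ R, τ * g₀ = g₀ * τ := by
    intro g₀ hg₀
    have hg : τ * g₀ * τ⁻¹ * g₀⁻¹ ∈ R := R.mul_mem ((hN g₀).1 hg₀) (R.inv_mem hg₀)
    have h1 : τ * g₀ * τ⁻¹ * g₀⁻¹ = 1 := by
      refine prc6_claim h5 R hab hR _ hg φ
        (φ.comp (Matrix.toLin' ((g₀⁻¹ : GL (Fin n) F) : Matrix (Fin n) (Fin n) F))) ?_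
      intro v h1 h2
      rw [LinearMap.comp_apply, Matrix.toLin'_apply] at h2
      simp only [Units.val_mul, ← Matrix.mulVec_mulVec]
      have e0 : (g₀ : Matrix (Fin n) (Fin n) F) *ᵥ
          (((g₀⁻¹ : GL (Fin n) F) : Matrix (Fin n) (Fin n) F) *ᵥ v) = v := by
        rw [Matrix.mulVec_mulVec, ← Units.val_mul, mul_inv_cancel, Units.val_one, Matrix.one_mulVec]
      rw [hτifix _ h2, e0, hτfix v h1]
    have h2 : τ * g₀ * τ⁻¹ = g₀ := by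
      rw [mul_inv_eq_one] at h1; exact h1
    rw [mul_inv_eq_iff_eq_mul] at h2
    exact h2
  have hsc : τ ∈ scalars (Fin n) F :=
    Cfsg.Agent.Lib.Helper77.Asch.mem_scalars_of_commute (by omega) R hR τ hcomm
  obtain ⟨c, hc⟩ := (mem_scalars_iff τ).1 hsc
  obtain ⟨v, hv0, h1, -, -, -⟩ := Cfsg.Agent.Lib.Helper32.AschU.tv5_ker4 h5 φ φ φ φ
  have e := hτfix v h1
  rw [hc, Matrix.smul_mulVec, Matrix.one_mulVec] at e
  have hc1 : c = 1 := Cfsg.Agent.Lib.Helper32.AschU.tv5_smul_fix c v hv0 e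
  apply hne
  apply Units.ext
  rw [hc, hc1]
  simp

end Cfsg.Agent.Lib.Helper77.ASU8
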