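import Cfsg.Agent.Lib.Helper77.AschG.PAIR
import Cfsg.Agent.Lib.Helper77.Asch.Main
import Cfsg.Agent.Lib.Helper77.Asch.AG5
import Cfsg.Agent.Lib.Helper47.UC.Defs
import Cfsg.Agent.Lib.Helper32.AschU.SMA

/-! Ladder ASU8 (helper77), rung R0 (helper56). -/

set_option autoImplicit false

namespace Cfsg.Agent.Lib.Helper77.ASU8

open Cfsg Cfsg.Geo
open Cfsg.Agent.Lib.Helper77.Asch (NormBy MinOver sc)
open Cfsg.Agent.Lib.Helper77.Asch
open scoped MatrixGroups Matrix

variable {n : ℕ} {F : Type*} [Field F]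

theorem r0_mem_GU (q : ℕ) (g : GL (Fin n) F) : g ∈ GU n F q ↔
    ∀ u v, hermForm n F q ((g : Matrix (Fin n) (Fin n) F) *ᵥ u) ((g : Matrix (Fin n) (Fin n) F) *ᵥ v)
      = hermForm n F q u v := Iff.rfl

theorem r0_inv_mulVec (g : GL (Fin n) F) (u : Fin n → F) :
    (g : Matrix (Fin n) (Fin n) F) *ᵥ (((g⁻¹ : GL (Fin n) F) : Matrix (Fin n) (Fin n) F) *ᵥ u) = u := by
  rw [Matrix.mulVec_mulVec, ← Units.val_mul, mul_inv_cancel, Units.val_one, Matrix.one_mulVec]

theorem r0_central (z : GL (Fin n) F) (hz : z ∈ scalars (Fin n) F) (g : GL (Fin n) F) :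
    g * z = z * g := by
  obtain ⟨c, hc⟩ := (mem_scalars_iff z).1 hz
  apply Units.ext
  rw [Units.val_mul, Units.val_mul, hc]
  simp

theorem r0_normBy_GU (q : ℕ) (Hh : Subgroup (GL (Fin n) F))
    (hHs : Hh ≤ similarityGroup (hermForm n F q)) : NormBy Hh (GU n F q) := by
  intro h hh g hg
  obtain ⟨c, hc⟩ := hHs hh
  rw [r0_mem_GU] at hg ⊢
  intro u v
  simp only [Units.val_mul, ← Matrix.mulVec_mulVec]
  rw [hc, hg, ← hc, r0_inv_mulVec, r0_inv_mulVec]

theorem r0_herm_ne (q : ℕ) (hn : 0 < n) : ∃ u v : Fin n → F, hermForm n F q u v ≠ 0 := by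
  refine ⟨Pi.single ⟨0, hn⟩ 1, Pi.single ⟨0, hn⟩ 1, ?_⟩
  unfold hermForm
  rw [Finset.sum_eq_single ⟨0, hn⟩]
  · simp
  · intro b _ hb
    simp [Pi.single_eq_of_ne hb]
  · intro h
    exact absurd (Finset.mem_univ _) h

/-- the multiplier of an element of `R` is `± 1`. -/
theorem r0_mult [Fintype F] (q : ℕ) (hF : Fintype.card F = q ^ 2) (hn : 0 < n) (h2 : (2 : F) ≠ 0)
    (x : GL (Fin n) F) (hx : x ∈ similarityGroup (hermForm n F q))
    (hx2 : x ^ 2 ∈ scalars (Fin n) F) (hx4 : x ^ 4 = 1) :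
    x ∈ GU n F q ∨ ∀ u v, hermForm n F q ((x : Matrix (Fin n) (Fin n) F) *ᵥ u)
      ((x : Matrix (Fin n) (Fin n) F) *ᵥ v) = - hermForm n F q u v := by
  obtain ⟨c, hc⟩ := hx
  obtain ⟨d, hd⟩ := (mem_scalars_iff (x ^ 2)).1 hx2
  have hqodd : Odd q := by
    have h := odd_card_of_two_ne_zero h2
    rw [hF] at h
    exact Nat.Odd.of_mul_right (by rw [pow_two] at h; exact h)
  have hd2 : (d : F) * d = 1 := by
    have h4 : ((x ^ 2 * x ^ 2 : GL (Fin n) F) : Matrix (Fin n) (Fin n) F) = 1 := by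
      rw [← pow_add, show 2 + 2 = 4 from rfl, hx4, Units.val_one]
    rw [Units.val_mul, hd] at h4
    have := congrFun (congrFun h4 ⟨0, hn⟩) ⟨0, hn⟩
    simpa using this
  have hd1 : (d : F) = 1 ∨ (d : F) = -1 := mul_self_eq_one_iff.1 hd2
  have hdq : (d : F) * (d : F) ^ q = 1 := by
    rcases hd1 with h | h
    · rw [h]; simp
    · rw [h, hqodd.neg_one_pow]; simp
  obtain ⟨u₀, v₀, huv⟩ := r0_herm_ne (F := F) q hn
  have hsq : ∀ u v, hermForm n F q (((x ^ 2 : GL (Fin n) F) : Matrix (Fin n) (Fin n) F) *ᵥ u)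
      (((x ^ 2 : GL (Fin n) F) : Matrix (Fin n) (Fin n) F) *ᵥ v) = (c : F) * ((c : F) * hermForm n F q u v) := by
    intro u v
    rw [pow_two, Units.val_mul, ← Matrix.mulVec_mulVec, ← Matrix.mulVec_mulVec, hc, hc]
  have hsq' : ∀ u v, hermForm n F q (((x ^ 2 : GL (Fin n) F) : Matrix (Fin n) (Fin n) F) *ᵥ u)
      (((x ^ 2 : GL (Fin n) F) : Matrix (Fin n) (Fin n) F) *ᵥ v) = hermForm n F q u v := by
    intro u v
    rw [hd]
    simp only [Matrix.smul_mulVec, Matrix.one_mulVec, hermForm, Pi.smul_apply, smul_eq_mul]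
    apply Finset.sum_congr rfl
    intro i _
    rw [mul_pow]
    linear_combination (u i * v i ^ q) * hdq
  have hc2 : (c : F) * c = 1 := by
    have h := (hsq u₀ v₀).symm.trans (hsq' u₀ v₀)
    apply mul_right_cancel₀ huv
    rw [one_mul, mul_assoc]
    exact h
  rcases mul_self_eq_one_iff.1 hc2 with h | h
  · left
    rw [r0_mem_GU]
    intro u v
    rw [hc, h, one_mul]
  · right
    intro u v
    rw [hc, h, neg_one_mul]

/-- R0. -/
theorem inf_GU_sup [Fintype F] (q : ℕ) (hF : Fintype.card F = q ^ 2) (h2n : 2 ≤ n) (h2 : (2 : F) ≠ 0)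
    (Hh N R : Subgroup (GL (Fin n) F)) (hHs : Hh ≤ similarityGroup (hermForm n F q))
    (hm : MinOver Hh (scalars (Fin n) F) N) (hab : ⁅N, N⁆ ≤ scalars (Fin n) F)
    (hN : ActsAbsolutelyIrreducibly (matrixSet N)) (hsup : R ⊔ scalars (Fin n) F = N) (hnorm : NormBy Hh R)
    (hexp2 : ∀ x ∈ N, x ^ 2 ∈ scalars (Fin n) F) (hexp : ∀ g ∈ R, g ^ 4 = 1) :
    (R ⊓ GU n F q) ⊔ scalars (Fin n) F = N ∧ NormBy Hh (R ⊓ GU n F q) := by
  have hn : 0 < n := by omega
  have hRN : R ≤ N := hsup ▸ le_sup_left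
  have hnb : NormBy Hh (R ⊓ GU n F q) := ag5_normBy_inf hnorm (r0_normBy_GU q Hh hHs)
  refine ⟨?_, hnb⟩
  rcases hm.min ((R ⊓ GU n F q) ⊔ scalars (Fin n) F) le_sup_right
    (sup_le (inf_le_left.trans hRN) hm.lt.le)
    (ag5_normBy_sup hnb (ag5_normBy_central Hh _ r0_central)) with h | h
  · exfalso
    have hR0 : R ⊓ GU n F q ≤ scalars (Fin n) F := h ▸ le_sup_left
    have hmult : ∀ x ∈ R, x ∈ GU n F q ∨ ∀ u v, hermForm n F q ((x : Matrix (Fin n) (Fin n) F) *ᵥ u)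
        ((x : Matrix (Fin n) (Fin n) F) *ᵥ v) = - hermForm n F q u v := fun x hx =>
      r0_mult q hF hn h2 x (hHs (hm.le (hRN hx))) (hexp2 x (hRN hx)) (hexp x hx)
    have hRcomm : ∀ x ∈ R, ∀ y ∈ R, x * y = y * x := by
      intro x hx y hy
      rcases hmult x hx with h1 | h1
      · exact (r0_central x (hR0 ⟨hx, h1⟩) y).symm
      · rcases hmult y hy with h3 | h3
        · exact r0_central y (hR0 ⟨hy, h3⟩) x
        · have hxy : x * y⁻¹ ∈ GU n F q := by
            rw [r0_mem_GU]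
            intro u v
            simp only [Units.val_mul, ← Matrix.mulVec_mulVec]
            rw [h1, ← neg_eq_iff_eq_neg.2 (h3 _ _).symm.symm, r0_inv_mulVec, r0_inv_mulVec, neg_neg]
          have hz := hR0 ⟨R.mul_mem hx (R.inv_mem hy), hxy⟩
          have e := r0_central _ hz y
          calc x * y = (x * y⁻¹) * y * y := by group
            _ = y * (x * y⁻¹) * y := by rw [e]
            _ = y * x := by group
    obtain ⟨x, hx, y, hy, c, hc1, hxy⟩ := Cfsg.Agent.Lib.Helper77.AschG.exists_noncomm h2n N hab hN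
    apply hc1
    apply Cfsg.Agent.Lib.Helper77.AschG.pair_sc_eq_one hn
    rw [← hsup] at hx hy
    obtain ⟨a, ha, z, hz, rfl⟩ := ag5_mem_sup R _ r0_central hx
    obtain ⟨b, hb, w, hw, rfl⟩ := ag5_mem_sup R _ r0_central hy
    have hcomm : a * z * (b * w) = b * w * (a * z) := by
      calc a * z * (b * w) = a * (z * b) * w := by group
        _ = a * (b * z) * w := by rw [r0_central z hz b]
        _ = (a * b) * (z * w) := by group
        _ = (b * a) * (w * z) := by rw [hRcomm a ha b hb, r0_central w hw z]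
        _ = b * (a * w) * z := by group
        _ = b * (w * a) * z := by rw [r0_central w hw a]
        _ = _ := by group
    rw [hcomm] at hxy
    exact (mul_eq_right.1 hxy.symm)
  · exact h

end Cfsg.Agent.Lib.Helper77.ASU8
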