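import Mathlib

set_option autoImplicit false

namespace Cfsg.Agent.Lib.Helper77.ASU8

variable {F : Type*} [Field F]

/-- W4. -/
theorem exists_order_four [Fintype F] (q : ℕ) (hF : Fintype.card F = q ^ 2) (h2 : (2 : F) ≠ 0) :
    ∃ w : Fˣ, orderOf w = 4 := by
  classical
  have hodd : Fintype.card F % 2 = 1 := by
    apply FiniteField.odd_card_of_char_ne_two
    intro h
    apply h2
    have := ringChar.Nat.cast_ringChar (R := F)
    rw [h] at this
    exact_mod_cast this
  have hq : Odd q := by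
    rcases Nat.even_or_odd q with h | h
    · exfalso
      have h1 : Even (q ^ 2) := h.pow_of_ne_zero (by norm_num)
      rw [← hF, Nat.even_iff] at h1
      omega
    · exact h
  obtain ⟨m, rfl⟩ := hq
  have hcard1 : 1 < Fintype.card F := Fintype.one_lt_card
  have hm : m ≠ 0 := by
    rintro rfl
    rw [hF] at hcard1
    norm_num at hcard1
  have hU : Nat.card Fˣ = 4 * (m ^ 2 + m) := by
    rw [Nat.card_eq_fintype_card, Fintype.card_units, hF]
    have : (2 * m + 1) ^ 2 = 4 * (m ^ 2 + m) + 1 := by ring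
    rw [this, Nat.add_sub_cancel]
  obtain ⟨g, hg⟩ := IsCyclic.exists_ofOrder_eq_natCard (α := Fˣ)
  refine ⟨g ^ (m ^ 2 + m), ?_⟩
  have ht : m ^ 2 + m ≠ 0 := by positivity
  rw [orderOf_pow_of_dvd ht (by rw [hg, hU]; exact Dvd.intro_left _ rfl), hg, hU]
  exact Nat.mul_div_cancel _ (Nat.pos_of_ne_zero ht)

end Cfsg.Agent.Lib.Helper77.ASU8
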