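import Cfsg.Agent.Lib.Helper77.AschG.CaseA
import Cfsg.Agent.Lib.Helper77.AschG.CaseB
import Cfsg.Agent.Lib.Helper47.UC.Defs
import Cfsg.Agent.Lib.Helper32.AschU.TV5
import Cfsg.Agent.Lib.Helper32.AschU.SMA
import Cfsg.Agent.Lib.Helper77.ASU8.W4
import Cfsg.Agent.Lib.Helper77.ASU8.FC4U
import Cfsg.Agent.Lib.Helper77.ASU8.R0
import Cfsg.Agent.Lib.Helper77.ASU8.PFIX
import Cfsg.Agent.Lib.Helper77.ASU8.PRC6
import Cfsg.Agent.Lib.Helper47.UC.MainB

set_option autoImplicit false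

namespace Cfsg.Agent.Lib.Helper77.ASU8

open Cfsg Cfsg.Geo
open Cfsg.Agent.Lib.Helper77.Asch (NormBy MinOver sc)
open Cfsg.Agent.Lib.Helper32.AschU (SUg IsTv gram)
open Cfsg.Agent.Lib.Helper47.UC (InGeoV)
open scoped MatrixGroups Matrix

variable {n : ℕ} {F : Type*} [Field F]

/-- the class-6 clause of the unitary case for `r = 2`. -/
def InC6U [Fintype F] (q : ℕ) (H : Subgroup (GL (Fin n) F)) : Prop :=
  ∃ (p : ℕ) (R : Subgroup (GL (Fin n) F)), p.Prime ∧ q = p ∧ p % 4 = 3 ∧ IsSymplecticTypeGroup 2 R ∧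
    ActsAbsolutelyIrreducibly (matrixSet R) ∧ R ≤ similarityGroup (hermForm n F q) ∧ Nat.card R = 4 * n ^ 2 ∧
    Nat.card (Subgroup.center R) = 4 ∧ ⁅R, R⁆ ≤ scalars (Fin n) F ∧ H ≤ subgroupNormalizer R

theorem InC6U.mono [Fintype F] {q : ℕ} {H K : Subgroup (GL (Fin n) F)} (h : H ≤ K) (hK : InC6U q K) : InC6U q H := by
  obtain ⟨p, R, h1, h2, h3, h4, h5, h6, h7, h8, h9, h10⟩ := hK
  exact ⟨p, R, h1, h2, h3, h4, h5, h6, h7, h8, h9, h.trans h10⟩

open Cfsg.Agent.Lib.Helper77.Asch Cfsg.Agent.Lib.Helper47.UC in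
/-- an absolutely irreducible subgroup of `GU`, normalised by `H`, realisable over a proper subfield: class 5. -/
theorem geoV_of_realisable [Fintype F] (q : ℕ) (hF : Fintype.card F = q ^ 2) (h2n : 2 ≤ n)
    (H P : Subgroup (GL (Fin n) F)) (hPabs : ActsAbsolutelyIrreducibly (matrixSet P)) (hPU : P ≤ GU n F q)
    (hnormH : H ≤ subgroupNormalizer P) (F₀ : Subfield F) (hF₀ : F₀ ≠ ⊤) (B : GL (Fin n) F)
    (hB : ∀ s ∈ matrixSet P, ∀ i j,
      ((B : Matrix (Fin n) (Fin n) F) * s * ((B⁻¹ : GL (Fin n) F) : Matrix (Fin n) (Fin n) F)) i j ∈ F₀) :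
    InGeoV q H := by
  have hn : 0 < n := by omega
  obtain ⟨F₁, r, hle1, hr, hcard⟩ := exists_prime_subfield F₀ hF₀
  have hB1 : ∀ s ∈ matrixSet P, ∀ i j,
      ((B : Matrix (Fin n) (Fin n) F) * s * ((B⁻¹ : GL (Fin n) F) : Matrix (Fin n) (Fin n) F)) i j ∈ F₁ :=
    fun s hs i j => hle1 (hB s hs i j)
  have hle : H ≤ subfieldSubgroup F₁ B⁻¹ := hnormH.trans (normalizer_le_subfield hn P hPabs F₁ B hB1)
  rcases hr.eq_two_or_odd' with h2 | hodd
  · subst h2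
    rcases fr2e q hF h2n P hPabs hPU F₁ hcard B hB1 with ⟨hq, hrat⟩ | ⟨ζ, h0, h1, hrat, halt⟩
    · exact Or.inr (Or.inr (Or.inr (Or.inr (Or.inr (Or.inr (Or.inr (Or.inr ⟨hq, F₁, B⁻¹, hcard, hrat, hle⟩)))))))
    · exact Or.inr (Or.inr (Or.inr (Or.inr (Or.inr (Or.inr (Or.inr (Or.inl
        ⟨F₁, B⁻¹, ζ, hcard, h0, h1, hrat, halt, hle⟩)))))))
  · obtain ⟨d, hd, hdJ⟩ := Cfsg.Agent.Lib.Helper32.AschU.fro1 q hF hn P hPabs hPU F₁ B hB1
    obtain ⟨P', hrat, heq⟩ := Cfsg.Agent.Lib.Helper32.AschU.fro2 q hF hn F₁ r hodd hcard B⁻¹ d hd hdJ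
    exact Or.inr (Or.inr (Or.inr (Or.inr (Or.inr (Or.inr (Or.inl
      ⟨F₁, r, P', hr, hodd, hcard, hrat, heq ▸ hle⟩))))))

open Cfsg.Agent.Lib.Helper77.Asch Cfsg.Agent.Lib.Helper77.AschG in
/-- the abelian case (`n` a power of 2). -/
theorem caseAU [Fintype F] (q : ℕ) (hF : Fintype.card F = q ^ 2) (h3 : 3 ≤ n) (h2pow : ∃ j, n = 2 ^ j)
    (Hh N : Subgroup (GL (Fin n) F)) (hsim : Hh ≤ similarityGroup (hermForm n F q))
    (hm : MinOver Hh (scalars (Fin n) F) N) (hab : ⁅N, N⁆ ≤ scalars (Fin n) F)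
    (hN : ActsAbsolutelyIrreducibly (matrixSet N)) : InGeoV q Hh ∨ InC6U q Hh := by
  classical
  have hn : 0 < n := by omega
  have h2n : 2 ≤ n := by omega
  have hZc : ∀ z ∈ scalars (Fin n) F, ∀ g : GL (Fin n) F, g * z = z * g :=
    fun z hz g => Cfsg.Agent.Lib.Helper77.Asch.scalars_central z hz g
  obtain ⟨r, hr, hexp⟩ := exists_prime_exp Hh (scalars (Fin n) F) N hZc hm hab
  obtain ⟨x, hx, y, hy, c, hc1, hxy⟩ := exists_noncomm h2n N hab hN
  have hcr : c ^ r = 1 := pair_pow hn r x y c hxy (hexp x hx)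
  obtain ⟨m, hm1, hnm⟩ := dim_prime_pow h2n r hr N hm.lt.le hab hN hexp
  have hr2 : r = 2 := by
    obtain ⟨j, hj⟩ := h2pow
    have h1 : r ∣ 2 ^ j := by
      rw [← hj, hnm]; exact dvd_pow_self r (by omega)
    exact (Nat.prime_dvd_prime_iff_eq hr Nat.prime_two).1 (hr.dvd_of_dvd_pow h1)
  subst hr2
  have h2F : (2 : F) ≠ 0 := by
    intro h2
    apply hc1
    have h4 : ((c : F) - 1) ^ 2 = 0 := by
      have h5 : (c : F) ^ 2 = 1 := by rw [← Units.val_pow_eq_pow_val, hcr, Units.val_one]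
      have : ((c : F) - 1) ^ 2 = (c : F) ^ 2 - 2 * (c : F) + 1 := by ring
      rw [this, h5, h2]
      have h6 : (1 : F) + 1 = 0 := by rw [one_add_one_eq_two]; exact h2
      linear_combination h6
    have h7 : (c : F) - 1 = 0 := by simpa using h4
    exact Units.ext (by simpa using sub_eq_zero.1 h7)
  obtain ⟨R, hsup, hnorm, hmem⟩ := exists_expSub_two h2n Hh N hm hab hN hexp
  have hRabs : ActsAbsolutelyIrreducibly (matrixSet R) := absIrr_of_sup R (by rw [hsup]; exact hN)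
  have hRN : R ≤ N := hsup ▸ le_sup_left
  have hRab : ⁅R, R⁆ ≤ scalars (Fin n) F := (Subgroup.commutator_mono hRN hRN).trans hab
  have hle : Hh ≤ subgroupNormalizer R := le_normalizer_of_normBy hnorm
  have hRexp : ∀ g ∈ R, g ^ 4 = 1 := fun g hg => ((hmem g).1 hg).2
  obtain ⟨w, hw⟩ := exists_order_four q hF h2F
  obtain ⟨b, hb⟩ := exists_monomial_basis hn R hRab hRabs.1 4 (by norm_num) w hw hRexp
  rcases field_cases_four_U q hF w hw with ⟨F₀, hF₀, hwF⟩ | ⟨hqp, hq4⟩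
  · left
    obtain ⟨hsup0, hnorm0⟩ := inf_GU_sup q hF h2n h2F Hh N R hsim hm hab hN hsup hnorm hexp hRexp
    have hR0abs : ActsAbsolutelyIrreducibly (matrixSet (R ⊓ GU n F q)) :=
      absIrr_of_sup _ (by rw [hsup0]; exact hN)
    have h0 : ∀ c : F, c ^ 4 = 1 → c ∈ F₀ := by
      intro c hc
      obtain ⟨k, rfl⟩ := eq_pow_of_root 4 (by norm_num) w hw c hc
      exact pow_mem hwF k
    obtain ⟨B, hB⟩ := realisable_of_monomial R 4 b hb F₀ h0
    exact geoV_of_realisable q hF h2n Hh (R ⊓ GU n F q) hR0abs inf_le_right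
      (le_normalizer_of_normBy hnorm0) F₀ hF₀ B
      (fun s hs i j => hB s (matrixSet_mono inf_le_left hs) i j)
  · right
    have hcc : Nat.card (Subgroup.center R) = 4 :=
      card_center hn N R 4 (by norm_num) hmem hm.lt.le hRabs w hw
    have hcR : Nat.card R = 4 * n ^ 2 := by
      rw [card_expSub hn N R hsup hab hN, hcc]
    have hwR : (sc w : GL (Fin n) F) ∈ R := by
      rw [hmem]
      refine ⟨hm.lt.le (ex1_sc_mem w), ?_⟩
      rw [ex1_sc_pow, ← hw, pow_orderOf_eq_one, ex1_sc_one]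
    exact ⟨q, R, hqp, rfl, hq4, ⟨hr, casea_pgroup R 2 2 (by simpa using hRexp),
      fun A hA hc => char_abelian_cyclic hn Hh N R hm hN hsup hnorm A hA hc,
      by rw [exponent_expSub hn R 4 hRexp w hw hwR]; norm_num⟩, hRabs,
      (hRN.trans hm.le).trans hsim, hcR, hcc, hRab, hle⟩

open Cfsg.Agent.Lib.Helper77.Asch Cfsg.Agent.Lib.Helper77.AschG Cfsg.Agent.Lib.Helper5.AschC in
/-- the tensor-induced case: `H` lies in a tensor wreath subgroup. -/
theorem caseB_wreath [Fintype F] (hn : 0 < n) (H N : Subgroup (GL (Fin n) F))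
    (hm : MinOver H (scalars (Fin n) F) N) (hnab : ¬ ⁅N, N⁆ ≤ scalars (Fin n) F)
    (hN : ActsAbsolutelyIrreducibly (matrixSet N))
    (hns : ¬ ∀ M : Subgroup (GL (Fin n) F), scalars (Fin n) F ≤ M → M ≤ N → NormBy N M →
      M = scalars (Fin n) F ∨ M = N) :
    ∃ (a k : ℕ) (e : Fin n ≃ (Fin k → Fin a)) (P : GL (Fin n) F), 2 ≤ a ∧ 2 ≤ k ∧ n = a ^ k ∧
      H ≤ tensorWreathSubgroup a k e P := by
  classical
  have hZc : ∀ z ∈ scalars (Fin n) F, ∀ g : GL (Fin n) F, g * z = z * g :=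
    fun z hz g => Cfsg.Agent.Lib.Helper77.Asch.scalars_central z hz g
  obtain ⟨Q, k, g, hk, hgH, hQN, hQZ, hQnorm, hcomm, hgen, hfac, hperm⟩ :=
    exists_commuting_conj' H (scalars (Fin n) F) N hZc hm hnab hns
  have hA := spanAlg_norm N Q hQnorm
  obtain ⟨I, hI⟩ := exists_minIdl hn (spanAlg Q)
  obtain ⟨U, hU⟩ := ideal_faith hn N hN.1 _ hA I hI (idl_inv_of_fac Q N hfac I hI.idl)
  obtain ⟨a, φ, ha, hφ⟩ := dens _ U hU (cen_finrank_of_fac hn Q N hfac hN)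
  have hcomm' : ∀ i j, i ≠ j → ∀ x y, (conjA (g i)).comp φ x * (conjA (g j)).comp φ y
      = (conjA (g j)).comp φ y * (conjA (g i)).comp φ x :=
    fun i j hij => conj_comm Q (g i) (g j) (hcomm i j hij) φ hφ
  have hnk : n = a ^ k := pw hn ha (fun i => (conjA (g i)).comp φ) hcomm'
    (adjoin_conj_eq_top hn N Q g hN hgen φ hφ)
  obtain ⟨Ψ, hΨ⟩ := exists_tensor_hom (fun i => (conjA (g i)).comp φ) hcomm'
  obtain ⟨e, P, hP⟩ := tensor_basis_of_hom hnk Ψ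
  have hslot : ∀ i x, tw e P (slot i x) = conjA (g i) (φ x) := by
    intro i x
    rw [← hP, hΨ]
    rfl
  have hle : H ≤ tensorWreathSubgroup a k e P := by
    intro h hh
    obtain ⟨σ, hσ⟩ := hperm h hh
    refine mem_tensorWreath (by omega) e P h σ (fun i x => ?_)
    have h1 : conjA (h * g i) (φ x) ∈ (spanAlg Q).map (conjA (g (σ i))) := by
      rw [← spanAlg_conj, ← hσ i, spanAlg_conj]
      exact ⟨φ x, hφ ▸ ⟨x, rfl⟩, rfl⟩
    obtain ⟨z, hz, hz'⟩ := h1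
    rw [← hφ] at hz
    obtain ⟨y, rfl⟩ := hz
    refine ⟨y, ?_⟩
    rw [hslot, hslot]
    have h2 : conjA (g (σ i)) (φ y) = conjA (h * g i) (φ x) := hz'
    rw [h2, conjA_mul]
    rfl
  have ha1 : a ≠ 1 := by
    rintro rfl
    exact hQZ (le_scalars_of_range hn φ Q hφ)
  exact ⟨a, k, e, P, by omega, hk, hnk, hle⟩

open Cfsg.Agent.Lib.Helper77.Asch Cfsg.Agent.Lib.Helper47.UC in
theorem main8 [Fintype F] (q : ℕ) (hF : Fintype.card F = q ^ 2) (h4 : 4 ≤ n) (h2pow : ∃ j, n = 2 ^ j)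
    (hpw : ∀ a k : ℕ, 2 ≤ k → n = a ^ k → a = 2)
    (H : Subgroup (GL (Fin n) F)) (hH : H ≤ GU n F q) :
    (InGeoV q H ∨ InC6U q H) ∨ InUnitaryResidualClass H := by
  classical
  have hn : 0 < n := by omega
  have h2n : 2 ≤ n := by omega
  by_cases hirr : ActsIrreducibly (matrixSet H)
  swap
  · exact Or.inl (Or.inl (ured2 q hF H hH hirr))
  obtain ⟨Z, hZ⟩ : ∃ Z, Z = scalars (Fin n) F := ⟨_, rfl⟩
  have hZc : ∀ z ∈ Z, ∀ g : GL (Fin n) F, g * z = z * g := by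
    intro z hz g
    exact Cfsg.Agent.Lib.Helper77.Asch.scalars_central z (hZ ▸ hz) g
  obtain ⟨Hh, hHh⟩ : ∃ Hh, Hh = H ⊔ Z := ⟨_, rfl⟩
  have hHle : H ≤ Hh := hHh ▸ le_sup_left
  have hZle : Z ≤ Hh := hHh ▸ le_sup_right
  have hsim : Hh ≤ similarityGroup (hermForm n F q) := by
    rw [hHh]
    exact sup_le (hH.trans (Cfsg.Agent.Lib.Helper32.AschU.GU_le_sim q))
      (hZ ▸ Cfsg.Agent.Lib.Helper32.AschU.scalars_le_sim q)
  have hirr' : ActsIrreducibly (matrixSet Hh) :=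
    Cfsg.Agent.Lib.Helper77.Asch.irr_mono (matrixSet_mono hHle) hirr
  have hZlt : Z < Hh := by
    refine lt_of_le_of_ne hZle (fun h => ?_)
    exact Cfsg.Agent.Lib.Helper77.Asch.not_irr_of_le_scalars h2n H (hZ ▸ h ▸ hHle) hirr
  obtain ⟨N, hm⟩ := exists_minOver Hh Z hZlt
  suffices (InGeoV q Hh ∨ InC6U q Hh) ∨ InUnitaryResidualClass H by
    rcases this with (h | h) | h
    · exact Or.inl (Or.inl (h.mono hHle))
    · exact Or.inl (Or.inr (h.mono hHle))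
    · exact Or.inr h
  rcases normal_cases_U q hF hn Hh hsim hirr' N hm.le hm.norm with h | h | hNabs
  · exact Or.inl (Or.inl h)
  · exact absurd (hZ ▸ h) (not_le_of_gt hm.lt)
  by_cases hab : ⁅N, N⁆ ≤ Z
  · exact Or.inl (caseAU q hF (by omega) h2pow Hh N hsim (hZ ▸ hm) (hZ ▸ hab) hNabs)
  · obtain ⟨P, hP⟩ : ∃ P, P = ⁅N, N⁆ := ⟨_, rfl⟩
    obtain ⟨hperf, hPZ⟩ := perfect_core Hh Z N hZc hm hab
    rw [← hP] at hperf hPZ hab
    have hPnorm : NormBy Hh P := hP ▸ normBy_commutator hm.norm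
    have hPN : P ≤ N := hPZ ▸ le_sup_left
    have hPabs : ActsAbsolutelyIrreducibly (matrixSet P) := absIrr_of_sup P (by rw [← hZ, hPZ]; exact hNabs)
    have hnormH : Hh ≤ subgroupNormalizer P := le_normalizer_of_normBy hPnorm
    have hPH : P ≤ H := by
      calc P ≤ ⁅Hh, Hh⁆ := hP ▸ Subgroup.commutator_mono hm.le hm.le
        _ ≤ H := hHh ▸ commutator_sup_le H _ hZc
    have hPU : P ≤ GU n F q := hPH.trans hH
    by_cases hsub : ∃ F₀ : Subfield F, F₀ ≠ ⊤ ∧ RealisableOver F₀ (matrixSet P)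
    · left; left
      obtain ⟨F₀, hF₀, B, hB⟩ := hsub
      exact geoV_of_realisable q hF h2n Hh P hPabs hPU hnormH F₀ hF₀ B hB
    have hnoQ : ¬ ∃ Q : (Fin n → F) → F, IsNondegenerateQuadraticForm Q ∧ FixesQuadForm (matrixSet P) Q := by
      rintro ⟨Q, hQ, hfix⟩
      obtain ⟨M, hM⟩ := Cfsg.Agent.Lib.Helper32.AschU.desc1 q hF P hPU Q hQ hfix
      exact hsub (Cfsg.Agent.Lib.Helper32.AschU.desc2 q hF hn P hPabs M hM)
    have hnoS : ¬ ∃ b : (Fin n → F) → (Fin n → F) → F, IsSymplecticForm b ∧ FixesForm (matrixSet P) b := by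
      rintro ⟨b, hb, hfix⟩
      obtain ⟨M, hM⟩ := desc1s q hF P hPU b hb hfix
      exact hsub (Cfsg.Agent.Lib.Helper32.AschU.desc2 q hF hn P hPabs M hM)
    have hsimple : ∀ M : Subgroup (GL (Fin n) F), Z ≤ M → M ≤ N → NormBy N M → M = Z ∨ M = N := by
      by_contra hns
      subst hZ
      obtain ⟨a, k, e, P', ha, hk, hnk, hle⟩ := caseB_wreath hn Hh N hm (hP ▸ hab) hNabs hns
      obtain rfl : a = 2 := hpw a k hk hnk
      have hPle : P ≤ tensorWreathSubgroup 2 k e P' := (hPN.trans hm.le).trans hle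
      rcases Cfsg.Agent.Lib.Helper77.AschG.tensorWreath_two_form (by omega : 0 < k) e P' with
        ⟨_, Q', hQ', hle'⟩ | ⟨f, hf, hle'⟩
      · exact hnoQ ⟨Q', hQ', fixesQuad_of_perfect P hperf Q' (hPle.trans hle')⟩
      · exact hnoS ⟨f, hf, fixes_of_perfect P hperf f (hPle.trans hle')⟩
    right
    subst hZ
    refine ⟨P, ⟨hPH, ?_, hperf, ?_, ?_, ?_, hPabs, ?_⟩, hnoQ, hnoS⟩
    · intro h hh x hx
      exact hPnorm h (hHle hh) x hx
    · exact simple_quot _ N P hPZ hm.lt hsimple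
    · exact nonabelian_quot _ P (by rw [hperf]; exact hab)
    · intro h _ hx
      exact mem_scalars_of_commute hn P hPabs h (centralizes_of_perfect _ P hZc hperf h hx)
    · intro F₀ hF₀ hr
      exact hsub ⟨F₀, hF₀, hr⟩

end Cfsg.Agent.Lib.Helper77.ASU8
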