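import Cfsg.Agent.Lib.Helper47.UC.Defs
import Cfsg.Agent.Lib.Helper47.UC.FSWAP
import Cfsg.Agent.Lib.Helper80.AS.SWAP
import Cfsg.Agent.Lib.Helper5.AschC.DIM
import Cfsg.Agent.Lib.Helper59.ASU9.NOALT

set_option autoImplicit false

namespace Cfsg.Agent.Lib.Helper77.ASU8

open Cfsg Cfsg.Geo
open Cfsg.Agent.Lib.Helper47.UC (InGeoV)
open scoped MatrixGroups Matrix

variable {n : ℕ} {F : Type*} [Field F]

/-- conversion of the working list `InGeoV` into the frozen union `InUnitaryClass`; the tensor products with two factors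
of the same dimension are kept apart. -/
theorem geoV_to_class [Fintype F] (q : ℕ) (hF : Fintype.card F = q ^ 2)
    (H : Subgroup (GL (Fin n) F)) (hH : H ≤ GU n F q) (h : InGeoV q H) :
    (∃ M : Subgroup (GL (Fin n) F), InUnitaryClass n F q M ∧ H ≤ M) ∨
    (∃ (s : ℕ) (e : Fin n ≃ Fin s × Fin s) (P : GL (Fin n) F) (f₁ f₂ : (Fin s → F) → (Fin s → F) → F), 2 ≤ s ∧
      IsUnitaryFormPow q f₁ ∧ IsUnitaryFormPow q f₂ ∧
      IsTensorFormStructure (fun x : F => x ^ q) (hermForm n F q) f₁ f₂ e P ∧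
      H ≤ tensorProductSubgroup s s e P) := by
  rcases h with ⟨W, h0, h1, h2⟩ | ⟨W, h0, h1, h2, h3⟩ | ⟨t, m, D, h1, h2⟩ | ⟨m, D, h1, h2, h3⟩ |
    ⟨r, A, h1, h2, h3, h4', h5⟩ | ⟨s, k, e, P, f₁, f₂, h1, h2, h3, h4', h5, h6⟩ | ⟨F₀, r, P, h1, h2, h3, h4', h5⟩ |
    ⟨F₀, P, ζ, h1, h2, h3, h4', h5, h6⟩ | ⟨h0, F₀, P, h1, h2, h3⟩
  · exact Or.inl ⟨_, Or.inl (Or.inl ⟨W, h0, h1, rfl⟩), le_inf h2 hH⟩
  · exact Or.inl ⟨_, Or.inl (Or.inr (Or.inl ⟨W, h0, h1, h2, rfl⟩)), le_inf h3 hH⟩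
  · exact Or.inl ⟨_, Or.inl (Or.inr (Or.inr (Or.inl ⟨t, m, D, h1, rfl⟩))), le_inf h2 hH⟩
  · have hdim := Cfsg.Agent.Lib.Helper5.AschC.decomp_dim D h1
    exact Or.inl ⟨_, Or.inl (Or.inr (Or.inr (Or.inr (Or.inl ⟨m, D, hdim, h1, h2, rfl⟩)))), le_inf h3 hH⟩
  · exact Or.inl ⟨_, Or.inr (Or.inl ⟨r, A, h1, h2, h3, h4', rfl⟩), le_inf h5 hH⟩
  · rcases lt_trichotomy s k with hlt | heq | hgt
    · exact Or.inl ⟨_, Or.inr (Or.inr (Or.inl ⟨s, k, e, P, f₁, f₂, h1, hlt, h3, h4', h5, rfl⟩)), le_inf h6 hH⟩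
    · subst heq
      exact Or.inr ⟨s, e, P, f₁, f₂, h1, h3, h4', h5, h6⟩
    · exact Or.inl ⟨_, Or.inr (Or.inr (Or.inl ⟨k, s, e.trans (Equiv.prodComm _ _), P, f₂, f₁, h2, hgt, h4', h3,
        Cfsg.Agent.Lib.Helper47.UC.form_swap _ _ f₁ f₂ e P h5, rfl⟩)),
        le_inf (h6.trans (Cfsg.Agent.Lib.Helper80.AS.tensor_swap e P).le) hH⟩
  · exact Or.inl ⟨_, Or.inl (Or.inr (Or.inr (Or.inr (Or.inr (Or.inl ⟨F₀, r, P, h1, h2, h3, h4', rfl⟩))))),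
      le_inf h5 hH⟩
  · have hev : Even n := by
      rcases Nat.even_or_odd n with hev | hodd
      · exact hev
      · exact (Cfsg.Agent.Lib.Helper59.ASU9.no_alt_odd q hF hodd F₀ P ζ h2 h5).elim
    exact Or.inl ⟨_, Or.inl (Or.inr (Or.inr (Or.inr (Or.inr (Or.inr (Or.inr (Or.inl
      ⟨F₀, P, ζ, hev, h1, h2, h3, h4', h5, rfl⟩))))))), le_inf h6 hH⟩
  · exact Or.inl ⟨_, Or.inl (Or.inr (Or.inr (Or.inr (Or.inr (Or.inr (Or.inl ⟨F₀, P, h0, h1, h2, rfl⟩)))))),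
      le_inf h3 hH⟩

end Cfsg.Agent.Lib.Helper77.ASU8
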